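import Mathlib
import Cfsg.Agent.SzC.ReeU

set_option autoImplicit false
set_option linter.unusedSectionVars false

/-! A small Ree group is generated by two elements. -/

namespace Cfsg.Agent.SzC.Re

open Cfsg Cfsg.Agent.Ree

variable {G Ω F : Type*} [Group G] [MulAction G Ω] [Field F] [Fintype F] {m : ℕ} (Z : Model G Ω F m)

theorem U_le_of (hm : 1 ≤ m) {L : Subgroup G} (hH : ∀ κ, Z.M κ ∈ L) {x y z : F} (hx : x ≠ 0)
    (h : Z.S x y z ∈ L) : Z.U ≤ L := by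
  classical
  have hc : ∀ {x y z} (κ : Fˣ), Z.S x y z ∈ L → Z.S (κ * x) (κ * Z.σ κ * y) (κ ^ 2 * Z.σ κ * z) ∈ L :=
    fun κ h => Z.M_S κ _ _ _ ▸ L.mul_mem (L.mul_mem (hH κ) h) (L.inv_mem (hH κ))
  have h1 : ∀ u, ∃ v w, Z.S u v w ∈ L := fun u => by
    by_cases hu : u = 0
    · exact ⟨0, 0, by rw [hu, Z.S_zero]; exact L.one_mem⟩
    · have := hc (Units.mk0 (u / x) (div_ne_zero hu hx)) h
      rw [Units.val_mk0, div_mul_cancel₀ _ hx] at this
      exact ⟨_, _, this⟩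
  obtain ⟨y0, z0, hy0, h2⟩ : ∃ y z, y ≠ 0 ∧ Z.S 0 y z ∈ L := by
    obtain ⟨u, hu⟩ : ∃ u : F, u ∉ ({0, 1, -1} : Finset F) := by
      by_contra hcon
      push Not at hcon
      have := (Finset.card_le_card fun u _ => hcon u : (Finset.univ : Finset F).card ≤ _).trans Finset.card_le_three
      have := Z.le_q hm
      simp only [Finset.card_univ] at *
      omega
    simp only [Finset.mem_insert, Finset.mem_singleton, not_or] at hu
    obtain ⟨v, w, h3⟩ := h1 u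
    obtain ⟨v', w', h4⟩ := h1 1
    obtain ⟨z', e⟩ := conj_S Z u v w 1 v' w'
    have h5 := L.mul_mem (e ▸ L.mul_mem (L.mul_mem h3 h4) (L.inv_mem h3)) (L.inv_mem h4)
    rw [Z.S_inv, Z.S_mul, add_neg_cancel] at h5
    refine ⟨_, _, fun e => ?_, h5⟩
    rcases Z.of_σ_eq hu.1 (by simp only [map_one, map_neg] at e; linear_combination e) with e | e
    · exact hu.2.1 e
    · exact hu.2.2 e
  have h3 : ∀ z, Z.S 0 0 z ∈ L := fun z => by
    obtain ⟨v, w, h3⟩ := h1 (z / y0)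
    have h5 := L.mul_mem (L.mul_mem (L.mul_mem h3 h2) (L.inv_mem h3)) (L.inv_mem h2)
    rw [Z.S_inv, Z.S_inv, Z.S_mul, Z.S_mul, Z.S_mul] at h5
    convert h5 using 2
    · ring
    · simp only [map_neg, map_zero]; ring
    · simp only [map_neg, map_zero]
      linear_combination -(Z.σ (z / y0) * (z / y0) ^ 2) * Z.three - div_mul_cancel₀ z hy0
  have h4 : ∀ y z, Z.S 0 y z ∈ L := fun y z => by
    obtain ⟨w, h5⟩ : ∃ w, Z.S 0 y w ∈ L := by
      by_cases hy : y = 0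
      · exact ⟨0, hy ▸ h3 0⟩
      obtain ⟨φ, hφ, φ0, hφ'⟩ := exists_sign Z
      obtain ⟨κ, hκ⟩ := Finite.injective_iff_surjective.mp hφ (y / y0)
      have h0 : κ ≠ 0 := by rintro rfl; simp [φ0, hy, hy0, eq_comm] at hκ
      have := hc (Units.mk0 κ h0) h2
      rw [Units.val_mk0, mul_zero] at this
      rcases hφ' κ h0 with e | e <;> rw [hκ, div_eq_iff hy0] at e
      · exact ⟨_, e ▸ this⟩
      · have := L.inv_mem this
        rw [Z.S_inv] at this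
        exact ⟨_, by convert this using 2 <;> simp [e]⟩
    have := L.mul_mem h5 (h3 (z - w))
    rw [Z.S_mul] at this
    convert this using 2 <;> simp
  rintro _ ⟨u, v, w, rfl⟩
  obtain ⟨v', w', h5⟩ := h1 u
  have := L.mul_mem h5 (h4 (v - v') (w - w'))
  rw [Z.S_mul] at this
  convert this using 2 <;> simp

include Z in
theorem two_gen (hm : 1 ≤ m) : ∃ a b : G, Subgroup.closure ({a, b} : Set G) = ⊤ := by
  obtain ⟨κ, hκ⟩ := IsCyclic.exists_generator (α := Fˣ)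
  refine ⟨Z.M κ, Z.S 1 0 0 * Z.t, ?_⟩
  set L := Subgroup.closure ({Z.M κ, Z.S 1 0 0 * Z.t} : Set G)
  have h1 : Z.M κ ∈ L := Subgroup.subset_closure (by simp)
  have h2 : Z.S 1 0 0 * Z.t ∈ L := Subgroup.subset_closure (by simp)
  have hH : ∀ l, Z.M l ∈ L := fun l => by
    obtain ⟨n, rfl⟩ := hκ l
    exact map_zpow Z.M κ n ▸ L.zpow_mem h1 n
  have h3 := L.mul_mem (hH (-1)) (L.mul_mem (L.mul_mem h2 (hH (-1))) (L.inv_mem h2))
  rw [show Z.M (-1) * (Z.S 1 0 0 * Z.t * Z.M (-1) * (Z.S 1 0 0 * Z.t)⁻¹) =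
    Z.M (-1) * Z.S 1 0 0 * (Z.t * Z.M (-1) * Z.t⁻¹) * (Z.S 1 0 0)⁻¹ by group, Z.t_M, Z.M_S, Z.S_inv,
    Z.S_mul] at h3
  have hU := U_le_of Z hm hH (fun e => Z.two_ne (by simp at e; linear_combination -e)) h3
  have ht : Z.t ∈ L := by simpa using L.mul_mem (L.inv_mem (hU (Z.S_mem 1 0 0))) h2
  have hB : ∀ g : G, g • Z.a = Z.a → g ∈ L := fun g hg => by
    obtain ⟨x, y, z, l, rfl⟩ := (Z.stab g).mp hg
    exact L.mul_mem (hU (Z.S_mem _ _ _)) (hH l)
  rw [eq_top_iff]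
  intro g _
  by_cases hg : g • Z.a = Z.a
  · exact hB g hg
  obtain ⟨x, y, z, e⟩ := Z.trans _ hg
  have := L.mul_mem (L.mul_mem (hU (Z.S_mem x y z)) ht) (hB ((Z.S x y z * Z.t)⁻¹ * g)
    (by rw [mul_smul, ← e, ← mul_smul (Z.S x y z), inv_smul_smul]))
  rwa [mul_inv_cancel_left] at this

end Cfsg.Agent.SzC.Re
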